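import Cfsg.Agent.SpecFive.Tools

/-!
# Groups in which every element has order at most six

`Ord6`, commuting elements, and the lemma that a normalised fixed-point-free group of coprime order
centralises a normal `p`-subgroup on which the norm of the complement vanishes.
-/

set_option autoImplicit false
set_option linter.unusedSectionVars false
set_option linter.style.haveILetI false

namespace CfsgLib.SpecSix

open CfsgLib.SpecFive (eq_one_of_pow_coprime)

/-- Every element has order at most six. -/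
def Ord6 (G : Type*) [Group G] : Prop := ∀ g : G, g ^ 4 = 1 ∨ g ^ 5 = 1 ∨ g ^ 6 = 1

variable {G : Type*} [Group G]

theorem Ord6.of_injective (h : Ord6 G) {H : Type*} [Group H] (f : H →* G) (hf : Function.Injective f) :
    Ord6 H := fun x => by
  simpa only [← map_pow, map_eq_one_iff f hf] using h (f x)

theorem Ord6.of_surjective (h : Ord6 G) {H : Type*} [Group H] (f : G →* H) (hf : Function.Surjective f) :
    Ord6 H := fun x => by
  obtain ⟨g, rfl⟩ := hf x
  rcases h g with e | e | e
  · exact Or.inl (by rw [← map_pow, e, map_one])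
  · exact Or.inr (Or.inl (by rw [← map_pow, e, map_one]))
  · exact Or.inr (Or.inr (by rw [← map_pow, e, map_one]))

theorem Ord6.subgroup (h : Ord6 G) (H : Subgroup G) : Ord6 H :=
  h.of_injective H.subtype H.subtype_injective

theorem Ord6.quotient (h : Ord6 G) (N : Subgroup G) [N.Normal] : Ord6 (G ⧸ N) :=
  h.of_surjective (QuotientGroup.mk' N) (QuotientGroup.mk'_surjective N)

theorem Ord6.orderOf_cases (h : Ord6 G) (g : G) :
    orderOf g = 1 ∨ orderOf g = 2 ∨ orderOf g = 3 ∨ orderOf g = 4 ∨ orderOf g = 5 ∨ orderOf g = 6 := by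
  have key : ∀ n : ℕ, 0 < n → n ≤ 6 → g ^ n = 1 → orderOf g = 1 ∨ orderOf g = 2 ∨ orderOf g = 3 ∨
      orderOf g = 4 ∨ orderOf g = 5 ∨ orderOf g = 6 := by
    intro n hn hn6 e
    have h1 := Nat.le_of_dvd hn (orderOf_dvd_of_pow_eq_one e)
    have h2 : 0 < orderOf g := (isOfFinOrder_iff_pow_eq_one.2 ⟨n, hn, e⟩).orderOf_pos
    omega
  rcases h g with e | e | e
  exacts [key 4 (by norm_num) (by norm_num) e, key 5 (by norm_num) (by norm_num) e,
    key 6 (by norm_num) le_rfl e]

theorem ord6_of_range [Finite G] (h : ∀ g : G, orderOf g ≤ 6) : Ord6 G := fun g => by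
  have h1 := orderOf_pos g
  have h6 := h g
  have hp := pow_orderOf_eq_one g
  generalize orderOf g = o at h1 h6 hp
  interval_cases o
  · exact Or.inl (by rw [show (4 : ℕ) = 1 * 4 from rfl, pow_mul, hp, one_pow])
  · exact Or.inl (by rw [show (4 : ℕ) = 2 * 2 from rfl, pow_mul, hp, one_pow])
  · exact Or.inr (Or.inr (by rw [show (6 : ℕ) = 3 * 2 from rfl, pow_mul, hp, one_pow]))
  · exact Or.inl hp
  · exact Or.inr (Or.inl hp)
  · exact Or.inr (Or.inr hp)

/-- The order of an element divides six unless it is four or five. -/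
theorem Ord6.pow_six_or (h : Ord6 G) (g : G) : orderOf g = 4 ∨ orderOf g = 5 ∨ g ^ 6 = 1 := by
  rcases h.orderOf_cases g with e | e | e | e | e | e
  all_goals first
    | exact Or.inl e
    | exact Or.inr (Or.inl e)
    | exact Or.inr (Or.inr (orderOf_dvd_iff_pow_eq_one.1 (by rw [e] <;> norm_num)))

theorem orderOf_five {a : G} (ha : a ^ 5 = 1) (ha1 : a ≠ 1) : orderOf a = 5 :=
  haveI := Fact.mk Nat.prime_five
  orderOf_eq_prime ha ha1

/-- An element commuting with an element of order five has exponent five. -/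
theorem Ord6.commute_five (h : Ord6 G) {a b : G} (ha : a ^ 5 = 1) (ha1 : a ≠ 1) (hab : Commute a b) :
    b ^ 5 = 1 := by
  by_cases hb : (orderOf b).Coprime 5
  · have hab' := hab.orderOf_mul_eq_mul_orderOf_of_coprime
      (by rw [orderOf_five ha ha1]; exact hb.symm)
    rw [orderOf_five ha ha1] at hab'
    have := h.orderOf_cases (a * b)
    rw [hab'] at this
    have hb1 : orderOf b = 1 := by omega
    rw [orderOf_eq_one_iff.1 hb1, one_pow]
  · rcases h.orderOf_cases b with e | e | e | e | e | e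
    all_goals rw [e] at hb
    all_goals first
      | exact orderOf_dvd_iff_pow_eq_one.1 (dvd_of_eq e)
      | exact (hb (by norm_num)).elim

/-- An element commuting with an element of order four is a 2-element. -/
theorem Ord6.commute_four (h : Ord6 G) {a b : G} (ha : a ^ 4 = 1) (ha2 : a * a ≠ 1) (hab : Commute a b) :
    b ^ 4 = 1 := by
  have hoa : orderOf a = 4 := by
    refine orderOf_eq_prime_pow (p := 2) (n := 1) ?_ (by simpa using ha)
    rwa [show 2 ^ 1 = 2 from rfl, pow_two]
  have key : ∀ c : G, Commute a c → (orderOf c).Coprime 4 → c = 1 := by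
    intro c hc hco
    have hab' := hc.orderOf_mul_eq_mul_orderOf_of_coprime (by rw [hoa]; exact hco.symm)
    rw [hoa] at hab'
    have := h.orderOf_cases (a * c)
    rw [hab'] at this
    exact orderOf_eq_one_iff.1 (by omega)
  rcases h b with e | e | e
  · exact e
  · have hb := key b hab
      (Nat.Coprime.coprime_dvd_left (orderOf_dvd_of_pow_eq_one e) (by norm_num))
    rw [hb, one_pow]
  · have h3 : (b ^ 2) ^ 3 = 1 := by rw [← pow_mul, e]
    have hb := key (b ^ 2) (hab.pow_right 2)
      (Nat.Coprime.coprime_dvd_left (orderOf_dvd_of_pow_eq_one h3) (by norm_num))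
    rw [show (4 : ℕ) = 2 * 2 from rfl, pow_mul, hb, one_pow]

/-- An element commuting with an element of order three has exponent six. -/
theorem Ord6.commute_three (h : Ord6 G) {a b : G} (ha : a ^ 3 = 1) (ha1 : a ≠ 1) (hab : Commute a b) :
    b ^ 6 = 1 := by
  rcases h.pow_six_or b with e | e | e
  · exfalso
    have h4 := pow_orderOf_eq_one b
    rw [e] at h4
    refine ha1 (eq_one_of_pow_coprime (show Nat.Coprime 4 3 by norm_num) (h.commute_four h4 ?_ hab.symm) ha)
    intro hh
    have := orderOf_dvd_of_pow_eq_one (show b ^ 2 = 1 by rwa [pow_two])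
    rw [e] at this
    norm_num at this
  · exfalso
    have h5 := pow_orderOf_eq_one b
    rw [e] at h5
    refine ha1 (eq_one_of_pow_coprime (show Nat.Coprime 5 3 by norm_num) (h.commute_five h5 ?_ hab.symm) ha)
    intro hh
    rw [hh, orderOf_one] at e
    norm_num at e
  · exact e

theorem Ord6.pow_two_group (h : Ord6 G) {H : Subgroup G} (hH : IsPGroup 2 H) {a : G} (ha : a ∈ H) :
    a ^ 4 = 1 := by
  obtain ⟨k, hk⟩ := hH ⟨a, ha⟩
  have hk' : a ^ 2 ^ k = 1 := congrArg Subtype.val hk
  obtain ⟨j, -, hj⟩ := (Nat.dvd_prime_pow Nat.prime_two).1 (orderOf_dvd_of_pow_eq_one hk')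
  have := h.orderOf_cases a
  rw [hj] at this
  refine orderOf_dvd_iff_pow_eq_one.1 ?_
  rw [hj]
  rcases j with _ | _ | _ | j
  · norm_num
  · norm_num
  · norm_num
  · exfalso
    have : 8 ≤ 2 ^ (j + 3) := by rw [pow_add]; have := Nat.one_le_two_pow (n := j); omega
    omega

theorem Ord6.pow_three_group (h : Ord6 G) {H : Subgroup G} (hH : IsPGroup 3 H) {a : G} (ha : a ∈ H) :
    a ^ 3 = 1 := by
  obtain ⟨k, hk⟩ := hH ⟨a, ha⟩
  have hk' : a ^ 3 ^ k = 1 := congrArg Subtype.val hk
  obtain ⟨j, -, hj⟩ := (Nat.dvd_prime_pow Nat.prime_three).1 (orderOf_dvd_of_pow_eq_one hk')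
  have := h.orderOf_cases a
  rw [hj] at this
  refine orderOf_dvd_iff_pow_eq_one.1 ?_
  rw [hj]
  rcases j with _ | _ | j
  · norm_num
  · norm_num
  · exfalso
    have : 9 ≤ 3 ^ (j + 2) := by rw [pow_add]; have := Nat.one_le_pow j 3 (by norm_num); omega
    omega

theorem Ord6.pow_five_group (h : Ord6 G) {H : Subgroup G} (hH : IsPGroup 5 H) {a : G} (ha : a ∈ H) :
    a ^ 5 = 1 := by
  obtain ⟨k, hk⟩ := hH ⟨a, ha⟩
  have hk' : a ^ 5 ^ k = 1 := congrArg Subtype.val hk
  obtain ⟨j, -, hj⟩ := (Nat.dvd_prime_pow Nat.prime_five).1 (orderOf_dvd_of_pow_eq_one hk')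
  have := h.orderOf_cases a
  rw [hj] at this
  refine orderOf_dvd_iff_pow_eq_one.1 ?_
  rw [hj]
  rcases j with _ | _ | j
  · norm_num
  · norm_num
  · exfalso
    have : 25 ≤ 5 ^ (j + 2) := by rw [pow_add]; have := Nat.one_le_pow j 5 (by norm_num); omega
    omega

/-- Elements of order five act without fixed points on groups of order prime to five. -/
theorem Ord6.fpf_five (h : Ord6 G) {f : G} (hf : f ^ 5 = 1) (hf1 : f ≠ 1) {d : G} {m : ℕ}
    (hd : d ^ m = 1) (hm : Nat.Coprime 5 m) (hc : Commute f d) : d = 1 :=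
  eq_one_of_pow_coprime hm (h.commute_five hf hf1 hc) hd

/-- An element of order three centralises only involutions of a 2-group. -/
theorem Ord6.sq_eq_one_of_commute_three (h : Ord6 G) {y d : G} (hy : y ^ 3 = 1) (hy1 : y ≠ 1)
    (hd : d ^ 4 = 1) (hc : Commute y d) : d * d = 1 := by
  have h6 := h.commute_three hy hy1 hc
  have h2 : d ^ Nat.gcd 6 4 = 1 := pow_gcd_eq_one.mpr ⟨h6, hd⟩
  rw [← pow_two]
  exact h2

/-- An element of order five is `≠` every conjugate of an element of other order. -/
theorem Ord6.pow_of_image_five (h : Ord6 G) {H : Type*} [Group H] (φ : G →* H) {g : G}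
    (hg : φ g ^ 5 = 1) (hg1 : φ g ≠ 1) : g ^ 5 = 1 := by
  rcases h g with e | e | e
  · exact absurd (eq_one_of_pow_coprime (show Nat.Coprime 4 5 by norm_num)
      (by rw [← map_pow, e, map_one]) hg) hg1
  · exact e
  · exact absurd (eq_one_of_pow_coprime (show Nat.Coprime 6 5 by norm_num)
      (by rw [← map_pow, e, map_one]) hg) hg1

theorem Ord6.pow_of_image_four (h : Ord6 G) {H : Type*} [Group H] (φ : G →* H) {g : G}
    (hg : φ g ^ 4 = 1) (hg2 : φ g * φ g ≠ 1) : g ^ 4 = 1 := by
  rcases h g with e | e | e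
  · exact e
  · exfalso
    apply hg2
    rw [eq_one_of_pow_coprime (show Nat.Coprime 5 4 by norm_num) (by rw [← map_pow, e, map_one]) hg,
      one_mul]
  · exfalso
    apply hg2
    have h2 : φ g ^ Nat.gcd 6 4 = 1 :=
      pow_gcd_eq_one.mpr ⟨by rw [← map_pow, e, map_one], hg⟩
    rw [← pow_two]
    exact h2

end CfsgLib.SpecSix
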