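import Cfsg.Agent.SpecSix.Basic
import Cfsg.Agent.SpecFive.Tools
import Cfsg.Agent.PrimeGraph.ThreePrimes
import Cfsg.Agent.TwoGroup.UniqueInvolution
import Cfsg.Agent.FusionTwo.Common
import Cfsg.Agent.RegularSolvable.Quaternion
import Cfsg.Agent.Chars.Apps.Burnside

/-!
# Groups with element orders at most six and a non-trivial `O₅`

The quotient by `O₅` is a {2,3}-group with a single involution; with elements of orders four and
six it is dicyclic of order 12 or `SL(2,3)`.
-/

set_option autoImplicit false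
set_option linter.unusedSectionVars false
set_option linter.style.haveILetI false

namespace CfsgLib.SpecSix

open Cfsg
open CfsgLib.SpecFive (eq_one_of_pow_coprime)

variable {G : Type*} [Group G] [Finite G]

theorem Ord6.prime_cases (h : Ord6 G) {r : ℕ} (hr : r.Prime) (hd : r ∣ Nat.card G) :
    r = 2 ∨ r = 3 ∨ r = 5 := by
  haveI := Fact.mk hr
  obtain ⟨g, hg⟩ := exists_prime_orderOf_dvd_card' r hd
  have h6 : orderOf g ≤ 6 := by
    have := h.orderOf_cases g
    omega
  have h2 := hr.two_le
  rw [hg] at h6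
  interval_cases r <;> first | omega | (exfalso; revert hr; norm_num)

theorem Ord6.dvd_of_not_solvable (h : Ord6 G) (hns : ¬ Group.IsSolvable G) :
    3 ∣ Nat.card G ∧ 5 ∣ Nat.card G := by
  refine ⟨by_contra fun h3 => hns ?_, by_contra fun h5 => hns ?_⟩
  · refine CfsgLib.Chars.Apps.isSolvable_of_primeFactors_subset G Nat.prime_two Nat.prime_five
      fun r hr hd => ?_
    rcases h.prime_cases hr hd with rfl | rfl | rfl
    exacts [Or.inl rfl, absurd hd h3, Or.inr rfl]
  · refine CfsgLib.Chars.Apps.isSolvable_of_primeFactors_subset G Nat.prime_two Nat.prime_three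
      fun r hr hd => ?_
    rcases h.prime_cases hr hd with rfl | rfl | rfl
    exacts [Or.inl rfl, Or.inr rfl, absurd hd h5]

/-- Two commuting elements of order `q` acting without fixed points on an abelian group of coprime
exponent generate a cyclic group. -/
theorem mem_zpowers_of_fpf (E : Subgroup G) [E.Normal] (hE1 : E ≠ ⊥)
    (hE : ∀ u ∈ E, ∀ v ∈ E, Commute u v) {p q : ℕ} (hq : q.Prime) (hpq : p.Coprime q)
    (hexp : ∀ v ∈ E, v ^ p = 1)
    (hfix : ∀ g : G, g ^ q = 1 → g ≠ 1 → ∀ v ∈ E, Commute g v → v = 1)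
    {a b : G} (ha : a ^ q = 1) (ha1 : a ≠ 1) (hb : b ^ q = 1) (hab : Commute b a) :
    b ∈ Subgroup.zpowers a := by
  by_contra hba
  refine hE1 (CfsgLib.PrimeGraph.eq_bot_of_fixedPointFree E hE p q q 1 hq hq.pos hpq hexp
    (fun g hg h => hfix g (h.elim id id) hg) a b ha ha1 hb hba (by rw [pow_one]; exact hab.eq) ?_ ?_)
  · intro j hj0 hjq he
    simp only [one_pow, Finset.sum_const, Finset.card_range, smul_eq_mul, mul_one] at he
    rw [ZMod.natCast_eq_zero_iff] at he
    exact absurd (Nat.le_of_dvd hj0 he) (by omega)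
  · simp

/-- Without a non-cyclic subgroup of order `p²` and with Sylow exponent `p`, `p²` divides no
order. -/
theorem not_sq_dvd {p : ℕ} (hp : p.Prime)
    (hexp : ∀ H : Subgroup G, IsPGroup p H → ∀ a ∈ H, a ^ p = 1)
    (hcyc : ∀ a b : G, a ^ p = 1 → a ≠ 1 → b ^ p = 1 → Commute b a → b ∈ Subgroup.zpowers a) :
    ¬ p ^ 2 ∣ Nat.card G := by
  intro hd
  haveI := Fact.mk hp
  obtain ⟨H, hH⟩ := Sylow.exists_subgroup_card_pow_prime p hd
  have hHp : IsPGroup p H := IsPGroup.of_card hH
  haveI : Nontrivial H := by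
    rw [← Finite.one_lt_card_iff_nontrivial, hH]
    exact Nat.one_lt_pow (by norm_num) hp.one_lt
  haveI := hHp.center_nontrivial
  obtain ⟨c, hc⟩ := exists_ne (1 : Subgroup.center H)
  set a : G := ((c : H) : G)
  have ha1 : a ≠ 1 := fun e => hc (Subtype.ext (Subtype.ext e))
  have ha : a ^ p = 1 := hexp H hHp a (c : H).2
  have hle : H ≤ Subgroup.zpowers a := fun b hb => hcyc a b ha ha1 (hexp H hHp b hb)
    (congrArg Subtype.val (Subgroup.mem_center_iff.1 c.2 ⟨b, hb⟩))
  have h1 := Nat.le_of_dvd Nat.card_pos (Subgroup.card_dvd_of_le hle)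
  rw [Nat.card_zpowers, orderOf_eq_prime ha ha1, hH, pow_two] at h1
  have := hp.two_le
  nlinarith

section FiveCore

variable (h : Ord6 G) {M : Subgroup G}

include h

theorem Ord6.exp_five (hM5 : IsPGroup 5 M) {m : G} (hm : m ∈ M) : m ^ 5 = 1 :=
  h.pow_five_group hM5 hm

/-- `O₅` is self-centralising. -/
theorem Ord6.centralizer_five_core (hM1 : pCore 5 G ≠ ⊥) :
    Subgroup.centralizer (pCore 5 G : Set G) ≤ pCore 5 G := by
  haveI : Fact (Nat.Prime 5) := ⟨Nat.prime_five⟩
  obtain ⟨m, hm, hm1⟩ := (pCore 5 G).bot_or_exists_ne_one.resolve_left hM1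
  have hm5 := h.pow_five_group CfsgLib.Constrained.isPGroup_pCore hm
  haveI := CfsgLib.Constrained.isPGroup_pCore (p := 5) (G := G)
  refine CfsgLib.Constrained.le_pCore inferInstance fun c => ⟨1, Subtype.ext ?_⟩
  simpa using h.commute_five hm5 hm1 (Subgroup.mem_centralizer_iff.1 c.2 m hm)

/-- Involutions invert `O₅`, which is commutative. -/
theorem Ord6.involution_inverts (hM5 : IsPGroup 5 M) [M.Normal] {t : G} (ht : t * t = 1) (ht1 : t ≠ 1) :
    (∀ m ∈ M, t * m * t⁻¹ = m⁻¹) ∧ ∀ a ∈ M, ∀ b ∈ M, Commute a b := by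
  have hfpf : MonoidHom.FixedPointFree (MulAut.conjNormal t : MulAut M) := by
    intro m hm
    have hc : Commute t m := mul_inv_eq_iff_eq_mul.1 (congrArg Subtype.val hm)
    by_contra hm1
    refine ht1 (eq_one_of_pow_coprime (show Nat.Coprime 2 5 by norm_num) (by rw [pow_two, ht])
      (h.commute_five (h.pow_five_group hM5 m.2) (fun e => hm1 (Subtype.ext e)) hc.symm))
  have hinv : Function.Involutive (MulAut.conjNormal t : MulAut M) := fun m => by
    rw [← MulAut.mul_apply, ← map_mul, ht, map_one, MulAut.one_apply]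
  refine ⟨fun m hm => ?_, fun a ha b hb => ?_⟩
  · have h1 := congrFun (MonoidHom.FixedPointFree.coe_eq_inv_of_involutive hfpf hinv) ⟨m, hm⟩
    exact congrArg Subtype.val h1
  · exact congrArg Subtype.val (MonoidHom.FixedPointFree.commute_all_of_involutive hfpf hinv ⟨a, ha⟩ ⟨b, hb⟩)

/-- The quotient by `O₅` has a single involution, and order prime to five. -/
theorem Ord6.five_core_quotient (hM1 : pCore 5 G ≠ ⊥) (h2 : 2 ∣ Nat.card G) :
    (∀ a b : G ⧸ pCore 5 G, a * a = 1 → a ≠ 1 → b * b = 1 → b ≠ 1 → a = b) ∧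
      ¬ 5 ∣ Nat.card (G ⧸ pCore 5 G) := by
  haveI : Fact (Nat.Prime 5) := ⟨Nat.prime_five⟩
  haveI : Fact (Nat.Prime 2) := ⟨Nat.prime_two⟩
  set M := pCore 5 G with hM
  have hM5 : IsPGroup 5 M := CfsgLib.Constrained.isPGroup_pCore
  have hinvol : ∀ g : G, (g : G ⧸ M) * g = 1 → (g : G ⧸ M) ≠ 1 → g * g = 1 ∧ g ≠ 1 := by
    intro g hg hg1
    have h5 : (g * g) ^ 5 = 1 := h.pow_five_group hM5 ((QuotientGroup.eq_one_iff _).1 hg)
    refine ⟨?_, fun e => hg1 (by rw [e]; rfl)⟩
    rcases h g with e | e | e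
    · exact eq_one_of_pow_coprime (show Nat.Coprime 2 5 by norm_num) (by rw [← e]; simp [pow_succ, mul_assoc]) h5
    · exfalso
      refine hg1 (eq_one_of_pow_coprime (show Nat.Coprime 2 5 by norm_num) (by rw [pow_two]; exact hg) ?_)
      rw [← QuotientGroup.mk_pow, e]; rfl
    · exact eq_one_of_pow_coprime (show Nat.Coprime 3 5 by norm_num) (by rw [← e]; simp [pow_succ, mul_assoc]) h5
  have huni : ∀ a b : G ⧸ M, a * a = 1 → a ≠ 1 → b * b = 1 → b ≠ 1 → a = b := by
    intro a b ha ha1 hb hb1
    obtain ⟨s, rfl⟩ := QuotientGroup.mk_surjective a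
    obtain ⟨t, rfl⟩ := QuotientGroup.mk_surjective b
    obtain ⟨hs, hs1⟩ := hinvol s ha ha1
    obtain ⟨ht, ht1⟩ := hinvol t hb hb1
    refine QuotientGroup.eq.2 ?_
    refine h.centralizer_five_core hM1 (Subgroup.mem_centralizer_iff.2 fun m hm => ?_)
    have i1 := (h.involution_inverts hM5 hs hs1).1
    have i2 := (h.involution_inverts hM5 ht ht1).1 m hm
    have i3 := i1 m⁻¹ (inv_mem hm)
    rw [inv_inv] at i3
    rw [inv_eq_of_mul_eq_one_right hs]
    have e : s * t * m * (s * t)⁻¹ = m := by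
      rw [show s * t * m * (s * t)⁻¹ = s * (t * m * t⁻¹) * s⁻¹ by group, i2, i3]
    exact (mul_inv_eq_iff_eq_mul.1 e).symm
  refine ⟨huni, fun h5 => ?_⟩
  obtain ⟨t, ht⟩ := exists_prime_orderOf_dvd_card' 2 h2
  have htM : (t : G ⧸ M) ≠ 1 := fun e => by
    obtain ⟨k, hk⟩ := hM5 ⟨t, (QuotientGroup.eq_one_iff t).1 e⟩
    have h1 := orderOf_dvd_of_pow_eq_one (show t ^ 5 ^ k = 1 from congrArg Subtype.val hk)
    rw [ht] at h1
    exact absurd (Nat.prime_two.dvd_of_dvd_pow h1) (by norm_num)
  have ht2 : (t : G ⧸ M) * t = 1 := by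
    rw [← QuotientGroup.mk_mul, ← pow_two, ← ht, pow_orderOf_eq_one]; rfl
  obtain ⟨f, hf⟩ := exists_prime_orderOf_dvd_card' 5 h5
  have hc : Commute f (t : G ⧸ M) := by
    refine mul_inv_eq_iff_eq_mul.1 (huni _ _ ?_ ?_ ht2 htM)
    · calc f * (t : G ⧸ M) * f⁻¹ * (f * t * f⁻¹) = f * ((t : G ⧸ M) * t) * f⁻¹ := by group
        _ = 1 := by rw [ht2]; group
    · rwa [ne_eq, conj_eq_one_iff]
  exact htM (eq_one_of_pow_coprime (show Nat.Coprime 2 5 by norm_num) (by rw [pow_two, ht2])
    ((h.quotient M).commute_five (orderOf_dvd_iff_pow_eq_one.1 hf.dvd)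
      (fun e => by rw [e, orderOf_one] at hf; norm_num at hf) hc))

end FiveCore

/-- {2,3}-groups with a single involution and elements of orders four and six. -/
theorem complement_cases {Q : Type*} [Group Q] [Finite Q] (h : Ord6 Q) (h5 : ¬ 5 ∣ Nat.card Q)
    (h9 : ¬ 3 ^ 2 ∣ Nat.card Q)
    (huni : ∀ a b : Q, a * a = 1 → a ≠ 1 → b * b = 1 → b ≠ 1 → a = b)
    {x a : Q} (hx : orderOf x = 4) (ha : orderOf a = 6) :
    Nonempty (Q ≃* QuaternionGroup 3) ∨
      Nonempty (Q ≃* Matrix.SpecialLinearGroup (Fin 2) (ZMod 3)) := by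
  classical
  haveI : Fact (Nat.Prime 2) := ⟨Nat.prime_two⟩
  have hx4 : x ^ 4 = 1 := by rw [← hx, pow_orderOf_eq_one]
  have hx2 : x * x ≠ 1 := fun e => by
    have := orderOf_dvd_of_pow_eq_one (show x ^ 2 = 1 by rw [pow_two, e])
    rw [hx] at this; norm_num at this
  have ha6 : a ^ 6 = 1 := by rw [← ha, pow_orderOf_eq_one]
  have ha3 : a ^ 3 ≠ 1 := fun e => by
    have := orderOf_dvd_of_pow_eq_one e
    rw [ha] at this; norm_num at this
  have ha2 : a ^ 2 ≠ 1 := fun e => by
    have := orderOf_dvd_of_pow_eq_one e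
    rw [ha] at this; norm_num at this
  have hxa : ¬ Commute x a := fun hc => by
    have h4 := h.commute_four hx4 hx2 hc
    have := orderOf_dvd_of_pow_eq_one h4
    rw [ha] at this; norm_num at this
  obtain ⟨S⟩ : Nonempty (Sylow 2 Q) := inferInstance
  have hmul := (S : Subgroup Q).card_mul_index
  have hodd : ¬ 2 ∣ (S : Subgroup Q).index := S.not_dvd_index
  have h3 : 3 ∣ Nat.card Q := (show 3 ∣ 6 by norm_num).trans (ha ▸ orderOf_dvd_natCard a)
  have hidx : (S : Subgroup Q).index = 3 := by
    have hdvd : (S : Subgroup Q).index ∣ Nat.card Q := Subgroup.index_dvd_card _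
    have hpp := Nat.eq_prime_pow_of_unique_prime_dvd (n := (S : Subgroup Q).index) (p := 3)
      Subgroup.index_ne_zero_of_finite fun {r} hr hrd => by
        rcases h.prime_cases hr (hrd.trans hdvd) with rfl | rfl | rfl
        exacts [absurd hrd hodd, rfl, absurd (hrd.trans hdvd) h5]
    generalize (S : Subgroup Q).index.primeFactorsList.length = k at hpp
    rcases k with _ | _ | k
    · exfalso
      rw [hpp, pow_zero, mul_one] at hmul
      obtain ⟨m, hm⟩ := S.isPGroup'.exists_card_eq
      rw [← hmul, hm] at h3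
      exact absurd (Nat.prime_three.dvd_of_dvd_pow h3) (by norm_num)
    · simpa using hpp
    · exact absurd ((pow_dvd_pow 3 (by omega : 2 ≤ k + 2)).trans (hpp ▸ hdvd)) h9
  rw [hidx] at hmul
  have h4 : 4 ∣ Nat.card (S : Subgroup Q) := by
    have h1 : 4 ∣ Nat.card (S : Subgroup Q) * 3 := hmul ▸ hx ▸ orderOf_dvd_natCard x
    exact (Nat.Coprime.dvd_of_dvd_mul_right (by norm_num) h1)
  have hsub : ∀ H : Subgroup Q, TwoGroup.AtMostOneInvolution H := fun H u v hu hv => by
    have inv2 : ∀ w : H, orderOf w = 2 → (w : Q) * w = 1 ∧ (w : Q) ≠ 1 := fun w hw => by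
      rw [← Subgroup.orderOf_coe] at hw
      obtain ⟨e1, e2⟩ := (orderOf_eq_iff (by norm_num : (0:ℕ) < 2)).1 hw
      exact ⟨by rwa [← pow_two], by simpa using e2 1 (by norm_num) (by norm_num)⟩
    exact Subtype.ext (huni u v (inv2 u hu).1 (inv2 u hu).2 (inv2 v hv).1 (inv2 v hv).2)
  rcases TwoGroup.cyclic_or_quaternion S.isPGroup' (hsub _) with hc | ⟨k, hk, ⟨e⟩⟩
  · -- order twelve
    left
    obtain ⟨c, hc⟩ := IsCyclic.exists_ofOrder_eq_natCard (α := (S : Subgroup Q))
    have hS4 : Nat.card (S : Subgroup Q) = 4 := by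
      have h6 := h.orderOf_cases (c : Q)
      rw [Subgroup.orderOf_coe, hc] at h6
      omega
    have hcard : Nat.card Q = 12 := by rw [← hmul, hS4]
    set A := Subgroup.zpowers a with hA
    have hAcard : Nat.card A = 6 := by rw [hA, Nat.card_zpowers, ha]
    haveI : A.Normal := Subgroup.normal_of_index_eq_two (by
      have := A.card_mul_index
      rw [hAcard, hcard] at this; omega)
    have hz : x ^ 2 = a ^ 3 := huni _ _ (by rw [← pow_add]; exact hx4) (by rwa [pow_two])
      (by rw [← pow_add]; exact ha6) ha3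
    have hconj : x * a * x⁻¹ = a⁻¹ := by
      obtain ⟨n, hn⟩ := (mem_powers_iff_mem_zpowers.2
        ((inferInstance : A.Normal).conj_mem a (Subgroup.mem_zpowers a) x))
      have hn' : x * a * x⁻¹ = a ^ (n % 6) := by
        rw [← hn]
        conv_lhs => rw [← Nat.mod_add_div n 6]
        simp only [pow_add, pow_mul, ha6, one_pow, mul_one]
      have key : ∀ m : ℕ, (a ^ (n % 6)) ^ m = 1 → a ^ m = 1 := fun m hm => by
        rw [← hn', conj_pow, conj_eq_one_iff] at hm; exact hm
      have hlt := Nat.mod_lt n (show 6 > 0 by norm_num)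
      generalize n % 6 = j at hn' key hlt
      interval_cases j
      · exact absurd (key 2 (by simp)) ha2
      · exfalso; exact hxa (mul_inv_eq_iff_eq_mul.1 (by rw [hn', pow_one]))
      · exact absurd (key 3 (by rw [← pow_mul]; exact ha6)) ha3
      · exact absurd (key 2 (by rw [← pow_mul]; exact ha6)) ha2
      · exact absurd (key 3 (by rw [← pow_mul, show 4 * 3 = 6 * 2 from rfl, pow_mul, ha6, one_pow])) ha3
      · rw [hn']
        exact eq_inv_of_mul_eq_one_left (by rw [← pow_succ]; exact ha6)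
    have hxA : x ∉ A := fun hxA => by
      obtain ⟨i, hi⟩ := hxA
      exact hxa (hi ▸ (Commute.refl a).zpow_left i)
    obtain ⟨f, hf, -⟩ := FusionTwo.exists_quaternion_hom (m := 3) (by rw [ha]) hz hconj hxA
    refine ⟨(MulEquiv.ofBijective f ((Nat.bijective_iff_injective_and_card f).2 ⟨hf, ?_⟩)).symm⟩
    rw [hcard, Nat.card_eq_fintype_card, QuaternionGroup.card]
  · -- order twenty four
    right
    have hk1 : k = 1 := by
      haveI : NeZero (2 ^ k) := ⟨by positivity⟩
      have h6 := h.orderOf_cases ((e.symm (QuaternionGroup.a 1) : (S : Subgroup Q)) : Q)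
      rw [Subgroup.orderOf_coe, MulEquiv.orderOf_eq, QuaternionGroup.orderOf_a_one] at h6
      by_contra hk'
      have : 4 ≤ 2 ^ k := le_trans (by norm_num) (Nat.pow_le_pow_right (show 2 > 0 by norm_num)
        (show 2 ≤ k by omega))
      omega
    subst hk1
    have hS8 : Nat.card (S : Subgroup Q) = 8 := by
      rw [Nat.card_congr e.toEquiv, Nat.card_eq_fintype_card, QuaternionGroup.card]; norm_num
    have hcard : Nat.card Q = 24 := by rw [← hmul, hS8]
    set s3 : Q := a ^ 2 with hs3
    have hs : s3 ^ 3 = 1 := by rw [hs3, ← pow_mul]; exact ha6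
    have noc : ∀ w : Q, w ^ 4 = 1 → w * w ≠ 1 → ¬ Commute s3 w := fun w hw hw2 hc =>
      ha2 (eq_one_of_pow_coprime (show Nat.Coprime 3 4 by norm_num) hs (h.commute_four hw hw2 hc.symm))
    set K := (S : Subgroup Q).normalCore with hK
    have hKS : K ≤ (S : Subgroup Q) := Subgroup.normalCore_le _
    have hKi : K.index ∣ 6 := by
      have hKker : K = (MulAction.toPermHom Q (Q ⧸ (S : Subgroup Q))).ker := Subgroup.normalCore_eq_ker _
      rw [hKker, Subgroup.index_ker]
      refine (Subgroup.card_subgroup_dvd_card _).trans ?_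
      rw [Nat.card_perm, ← Subgroup.index, hidx]
      rfl
    have hKm := K.card_mul_index
    have hKd : Nat.card K ∣ 8 := hS8 ▸ Subgroup.card_dvd_of_le hKS
    rw [hcard] at hKm
    have hKc : Nat.card K = 4 ∨ Nat.card K = 8 := by
      have := Nat.le_of_dvd (by norm_num) hKi
      have := Nat.le_of_dvd (by norm_num) hKd
      have hpos := Nat.card_pos (α := K)
      interval_cases hc : Nat.card K <;> first | omega | (exfalso; revert hKd; norm_num)
    have hnormS : (S : Subgroup Q).Normal := by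
      rcases hKc with hK4 | hK8
      · exfalso
        haveI : Fintype K := Fintype.ofFinite K
        have hKcyc : IsCyclic K := by
          rcases TwoGroup.cyclic_or_quaternion (IsPGroup.of_card (p := 2) (n := 2) hK4)
            (hsub K) with hc | ⟨j, hj, ⟨e'⟩⟩
          · exact hc
          · exfalso
            haveI : NeZero (2 ^ j) := ⟨by positivity⟩
            rw [Nat.card_congr e'.toEquiv, Nat.card_eq_fintype_card, QuaternionGroup.card] at hK4
            have : 2 ≤ 2 ^ j := Nat.le_self_pow (by omega) 2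
            omega
        haveI := hKcyc
        obtain ⟨c, hc⟩ := IsCyclic.exists_ofOrder_eq_natCard (α := K)
        rw [hK4, ← Subgroup.orderOf_coe] at hc
        have hc4 : (c : Q) ^ 4 = 1 := by rw [← hc, pow_orderOf_eq_one]
        have hc2 : (c : Q) * c ≠ 1 := fun e => by
          have := orderOf_dvd_of_pow_eq_one (show (c : Q) ^ 2 = 1 by rw [pow_two, e])
          rw [hc] at this; norm_num at this
        let X : Set Q := {w | w ∈ K ∧ w * w ≠ 1}
        have hX : ∀ w ∈ X, s3 * w * s3⁻¹ ∈ X := fun w hw =>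
          ⟨(inferInstance : K.Normal).conj_mem w hw.1 s3, fun e => hw.2 (conj_eq_one_iff.1 (by
            rw [← e]; group : s3 * (w * w) * s3⁻¹ = 1))⟩
        have hKz : (K : Set Q) = {1, (c : Q), (c : Q) * c, (c : Q) * c * c} := by
          refine (Set.eq_of_subset_of_ncard_le ?_ ?_ (Set.toFinite _)).symm
          · rintro w (rfl | rfl | rfl | rfl)
            exacts [K.one_mem, c.2, K.mul_mem c.2 c.2, K.mul_mem (K.mul_mem c.2 c.2) c.2]
          · rw [← Nat.card_coe_set_eq]
            show Nat.card K ≤ _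
            rw [hK4]
            have inj : ∀ i j : ℕ, i < 4 → j < 4 → (c : Q) ^ i = (c : Q) ^ j → i = j := fun i j hi hj e =>
              pow_injOn_Iio_orderOf (by rw [Set.mem_Iio, hc]; exact hi) (by rw [Set.mem_Iio, hc]; exact hj) e
            rw [Set.ncard_insert_of_notMem, Set.ncard_insert_of_notMem, Set.ncard_pair]
            · intro e
              exact absurd (inj 2 3 (by norm_num) (by norm_num) (by simpa [pow_succ] using e)) (by norm_num)
            · rintro (e | e)
              · exact absurd (inj 1 2 (by norm_num) (by norm_num) (by simpa [pow_succ] using e)) (by norm_num)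
              · exact absurd (inj 1 3 (by norm_num) (by norm_num) (by simpa [pow_succ] using e)) (by norm_num)
            · rintro (e | e | e)
              · exact absurd (inj 0 1 (by norm_num) (by norm_num) (by simpa [pow_succ] using e)) (by norm_num)
              · exact absurd (inj 0 2 (by norm_num) (by norm_num) (by simpa [pow_succ] using e)) (by norm_num)
              · exact absurd (inj 0 3 (by norm_num) (by norm_num) (by simpa [pow_succ] using e)) (by norm_num)
        have hXe : X = {(c : Q), (c : Q) * c * c} := by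
          ext w
          show (w ∈ (K : Set Q) ∧ _) ↔ _
          rw [hKz]
          have e2 : (c : Q) * c * ((c : Q) * c) = 1 := by rw [← hc4]; simp [pow_succ, mul_assoc]
          have e3 : (c : Q) * c * c * ((c : Q) * c * c) ≠ 1 := fun e => hc2 (by
            rw [← e, show (c : Q) * c * c * ((c : Q) * c * c) = (c : Q) * c * ((c : Q) * c) * ((c : Q) * c) by group,
              e2, one_mul])
          constructor
          · rintro ⟨rfl | rfl | rfl | rfl, hw⟩
            exacts [absurd (one_mul 1) hw, Or.inl rfl, absurd e2 hw, Or.inr rfl]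
          · rintro (rfl | rfl)
            exacts [⟨Or.inr (Or.inl rfl), hc2⟩, ⟨Or.inr (Or.inr (Or.inr rfl)), e3⟩]
        obtain ⟨w, hw, hcw⟩ := SpecFive.exists_fixed Nat.prime_three hs X hX (by
          rw [hXe, Nat.card_coe_set_eq, Set.ncard_pair (fun e => hc2 (mul_eq_right.1 e.symm))]
          norm_num)
        exact noc w (h.pow_two_group S.isPGroup' (hKS hw.1)) hw.2 hcw
      · have : K = (S : Subgroup Q) := Subgroup.eq_of_le_of_card_ge hKS (by rw [hS8, hK8])
        rw [← this]; infer_instance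
    haveI := hnormS
    refine RegularSolvable.nonempty_mulEquiv_sl_two_three hcard.le (S : Subgroup Q) e s3 hs ?_
    intro hc
    obtain ⟨w, hw4, hw2⟩ : ∃ w : QuaternionGroup 2, w ^ 4 = 1 ∧ w * w ≠ 1 :=
      ⟨QuaternionGroup.a 1, by decide +kernel, by decide +kernel⟩
    refine noc (e.symm w : Q) ?_ ?_ (Subgroup.mem_centralizer_iff.1 hc _ (e.symm w).2).symm
    · rw [← Subgroup.coe_pow, ← map_pow, hw4, map_one, Subgroup.coe_one]
    · intro he
      refine hw2 (e.symm.injective (Subtype.ext ?_))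
      rw [map_mul, Subgroup.coe_mul, he, map_one, Subgroup.coe_one]

end CfsgLib.SpecSix
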