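import Mathlib

/-!
A group of exponent three and order at least eight acting on a 2-group of order at most 32, all fixed
points of nontrivial elements being involutions: the 2-group has exponent two.
-/

set_option autoImplicit false
set_option linter.unusedSectionVars false
set_option linter.style.haveILetI false

namespace CfsgLib.SpecSix

variable {M A : Type*} [Group M] [Finite M] [Group A] [Finite A]

/-- The fixed points of an automorphism. -/
def fixSub (f : MulAut M) : Subgroup M where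
  carrier := {m | f m = m}
  one_mem' := map_one f
  mul_mem' := fun {x y} hx hy => show f (x * y) = x * y by rw [map_mul, hx, hy]
  inv_mem' := fun {x} hx => show f x⁻¹ = x⁻¹ by rw [map_inv, hx]

theorem mem_fixSub {f : MulAut M} {m : M} : m ∈ fixSub f ↔ f m = m := Iff.rfl

theorem apply_pow_fixed {f : MulAut M} {m : M} (h : f m = m) : ∀ i : ℕ, (f ^ i) m = m
  | 0 => rfl
  | i + 1 => by rw [pow_succ, MulAut.mul_apply, h, apply_pow_fixed h i]

theorem exists_fixer (ψ : A →* MulAut M) (hA : 8 ≤ Nat.card A) (hM : Nat.card M ≤ 8) (p : M) :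
    ∃ k : A, k ≠ 1 ∧ ψ k p = p := by
  classical
  by_cases hp : p = 1
  · have : Nontrivial A := Finite.one_lt_card_iff_nontrivial.1 (by omega)
    obtain ⟨k, hk⟩ := exists_ne (1 : A)
    exact ⟨k, hk, by rw [hp, map_one]⟩
  have := Fintype.ofFinite M
  have := Fintype.ofFinite A
  have hlt : Fintype.card {m : M // m ≠ 1} < Fintype.card A := by
    have h1 : Fintype.card {m : M // m ≠ 1} < Fintype.card M :=
      Fintype.card_subtype_lt (x := (1 : M)) (fun h => h rfl)
    rw [Nat.card_eq_fintype_card] at hA hM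
    omega
  obtain ⟨k, l, hne, he⟩ := Fintype.exists_ne_map_eq_of_card_lt
    (fun k : A => (⟨ψ k p, fun h => hp ((map_eq_one_iff _ (ψ k).injective).1 h)⟩ : {m : M // m ≠ 1}))
    hlt
  have he' : ψ k p = ψ l p := congrArg Subtype.val he
  refine ⟨l⁻¹ * k, fun h => hne (inv_mul_eq_one.1 h).symm, ?_⟩
  rw [map_mul, MulAut.mul_apply, he', ← MulAut.mul_apply, ← map_mul, inv_mul_cancel, map_one,
    MulAut.one_apply]

theorem eq_one_of_fixed_both (ψ : A →* MulAut M) (hcomm : ∀ x y : A, x * y = y * x)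
    (h3 : ∀ x : A, x ^ 3 = 1) (hM : Nat.card M ≤ 8) {k l : A} {p : M} (hk : ψ k p = p)
    (hkm : ∃ m, ψ k m ≠ m) (hl : ψ l p ≠ p) :
    Nat.card (fixSub (ψ k)) = 4 ∧ ∀ z, ψ k z = z → ψ l z = z → z = 1 := by
  classical
  set F := fixSub (ψ k) with hF
  have hcl : ∀ z, ψ k z = z → ψ k (ψ l z) = ψ l z := fun z hz => by
    rw [← MulAut.mul_apply, ← map_mul, hcomm, map_mul, MulAut.mul_apply, hz]
  have hll : ψ l (ψ l (ψ l p)) = p := by
    have h := congrArg (fun f : MulAut M => f p) (show ψ (l ^ 3) = 1 by rw [h3, map_one])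
    simpa [pow_succ, MulAut.mul_apply] using h
  have hp1 : p ≠ 1 := fun e => hl (by rw [e, map_one])
  have hne : ψ l (ψ l p) ≠ p := fun e => hl (by
    have h := hll
    rwa [e] at h)
  let f : Fin 4 → F := ![1, ⟨p, hk⟩, ⟨ψ l p, hcl p hk⟩, ⟨ψ l (ψ l p), hcl _ (hcl p hk)⟩]
  have hf : Function.Injective f := by
    have e1 : ψ l p ≠ 1 := fun e => hp1 ((map_eq_one_iff _ (ψ l).injective).1 e)
    have e2 : ψ l (ψ l p) ≠ 1 := fun e => e1 ((map_eq_one_iff _ (ψ l).injective).1 e)
    have e3 : ψ l (ψ l p) ≠ ψ l p := fun e => hl ((ψ l).injective e)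
    intro i j e
    have e' := congrArg Subtype.val e
    fin_cases i <;> fin_cases j <;>
      simp [f, hp1, Ne.symm hp1, e1, Ne.symm e1, e2, Ne.symm e2, e3, Ne.symm e3, hl, Ne.symm hl,
        hne, Ne.symm hne] at e' ⊢
  have h4 : 4 ≤ Nat.card F := by
    simpa using Nat.card_le_card_of_injective f hf
  have hle : Nat.card F ≤ 4 := by
    obtain ⟨d, hd⟩ := Subgroup.card_subgroup_dvd_card F
    have hpos : 0 < Nat.card M := Nat.card_pos
    rcases d with _ | _ | d
    · omega
    · exfalso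
      obtain ⟨m, hm⟩ := hkm
      have htop : F = ⊤ := Subgroup.eq_top_of_card_eq F (by omega)
      exact hm (show m ∈ F from htop ▸ Subgroup.mem_top m)
    · rw [mul_add, mul_add] at hd
      omega
  refine ⟨le_antisymm hle h4, fun z hz hz' => ?_⟩
  have hsur : Function.Surjective f := by
    have := Fintype.ofFinite F
    refine ((Fintype.bijective_iff_injective_and_card f).2 ⟨hf, ?_⟩).2
    rw [← Nat.card_eq_fintype_card (α := F), Fintype.card_fin]
    omega
  obtain ⟨i, hi⟩ := hsur ⟨z, hz⟩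
  have hi' := congrArg Subtype.val hi
  fin_cases i <;> simp [f] at hi'
  · exact hi'.symm
  · exact absurd (hi'.symm ▸ hz') hl
  · exact absurd ((ψ l).injective (hi'.symm ▸ hz')) hl
  · exact absurd ((ψ l).injective ((ψ l).injective (hi'.symm ▸ hz'))) hl

/-- An element acting trivially on a group of order at most eight. -/
theorem exists_trivial (ψ : A →* MulAut M) (hA : 8 ≤ Nat.card A)
    (hcomm : ∀ x y : A, x * y = y * x) (h3 : ∀ x : A, x ^ 3 = 1) (hM : Nat.card M ≤ 8) :
    ∃ k : A, k ≠ 1 ∧ ∀ m, ψ k m = m := by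
  by_contra hno
  push Not at hno
  have : Nontrivial A := Finite.one_lt_card_iff_nontrivial.1 (by omega)
  obtain ⟨k0, hk0⟩ := exists_ne (1 : A)
  obtain ⟨p, hp⟩ := hno k0 hk0
  obtain ⟨k, hk1, hk⟩ := exists_fixer ψ hA hM p
  obtain ⟨c1, i1⟩ := eq_one_of_fixed_both ψ hcomm h3 hM hk (hno k hk1) hp
  obtain ⟨m, hm⟩ := hno k hk1
  obtain ⟨k', hk'1, hk'⟩ := exists_fixer ψ hA hM m
  obtain ⟨c2, i2⟩ := eq_one_of_fixed_both ψ hcomm h3 hM hk' (hno k' hk'1) hm
  have hdis : Disjoint (fixSub (ψ k')) (fixSub (ψ k)) := by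
    rw [disjoint_iff, eq_bot_iff]
    rintro z ⟨hz, hz'⟩
    exact Subgroup.mem_bot.2 (i2 z hz hz')
  have := Nat.card_le_card_of_injective _ (Subgroup.mul_injective_of_disjoint hdis)
  rw [Nat.card_prod, c1, c2] at this
  omega

/-- The central elements of order at most two. -/
def centreTwo (M : Type*) [Group M] : Subgroup M where
  carrier := {z | (∀ g : M, g * z = z * g) ∧ z * z = 1}
  one_mem' := ⟨fun g => by simp, one_mul 1⟩
  mul_mem' := fun {x y} hx hy => ⟨fun g => by rw [← mul_assoc, hx.1, mul_assoc, hy.1, ← mul_assoc], by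
    rw [mul_assoc, ← mul_assoc y, hx.1 y, mul_assoc x y y, hy.2, mul_one, hx.2]⟩
  inv_mem' := fun {x} hx => ⟨fun g => by
    rw [inv_eq_of_mul_eq_one_right hx.2]; exact hx.1 g, by
    rw [inv_eq_of_mul_eq_one_right hx.2, hx.2]⟩

instance : (centreTwo M).Normal := ⟨fun z hz g => by rwa [hz.1 g, mul_inv_cancel_right]⟩

theorem map_centreTwo_mem (f : MulAut M) {z : M} (hz : z ∈ centreTwo M) : f z ∈ centreTwo M :=
  ⟨fun g => by
    obtain ⟨g, rfl⟩ := f.surjective g
    rw [← map_mul, ← map_mul, hz.1], by rw [← map_mul, hz.2, map_one]⟩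

theorem map_centreTwo (f : MulAut M) : (centreTwo M).map f.toMonoidHom = centreTwo M := by
  refine le_antisymm ?_ fun z hz => ⟨f⁻¹ z, map_centreTwo_mem _ hz, f.apply_symm_apply z⟩
  rintro _ ⟨z, hz, rfl⟩
  exact map_centreTwo_mem f hz

/-- The action on the quotient by `centreTwo`. -/
def quotAct (ψ : A →* MulAut M) : A →* MulAut (M ⧸ centreTwo M) :=
  MonoidHom.mk' (fun k => QuotientGroup.congr _ _ (ψ k) (map_centreTwo (ψ k))) fun k l => by
    refine MulEquiv.ext fun q => ?_
    obtain ⟨o, rfl⟩ := QuotientGroup.mk_surjective q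
    show ((ψ (k * l) o : M) : M ⧸ centreTwo M) = ((ψ k (ψ l o) : M) : M ⧸ centreTwo M)
    rw [map_mul]
    rfl

theorem quotAct_apply (ψ : A →* MulAut M) (k : A) (o : M) :
    quotAct ψ k (o : M ⧸ centreTwo M) = ((ψ k o : M) : M ⧸ centreTwo M) := rfl

theorem nontrivial_centreTwo (hO : IsPGroup 2 M) [Nontrivial M] : 2 ≤ Nat.card (centreTwo M) := by
  have : Fact (Nat.Prime 2) := ⟨Nat.prime_two⟩
  have := hO.center_nontrivial
  obtain ⟨n, hn, hn'⟩ := (hO.to_subgroup (Subgroup.center M)).nontrivial_iff_card.1 this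
  obtain ⟨z, hz⟩ := exists_prime_orderOf_dvd_card' (G := Subgroup.center M) 2
    (by rw [hn']; exact dvd_pow_self 2 hn.ne')
  refine (Subgroup.one_lt_card_iff_ne_bot _).2 fun e => ?_
  have hmem : (z : M) ∈ centreTwo M := ⟨fun g => Subgroup.mem_center_iff.1 z.2 g, by
    have := pow_orderOf_eq_one z
    rw [hz, pow_two] at this
    exact congrArg Subtype.val this⟩
  rw [e, Subgroup.mem_bot] at hmem
  rw [show z = 1 from Subtype.ext hmem, orderOf_one] at hz
  omega

theorem mul_self_of_six (hO : IsPGroup 2 M) {o : M} (h : (o ^ 3) ^ 2 = 1) : o * o = 1 := by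
  obtain ⟨k, hk⟩ := hO o
  have h6 : o ^ 6 = 1 := by rw [← h, ← pow_mul]
  have := pow_gcd_eq_one.mpr ⟨h6, (show o ^ (2 ^ (k + 1)) = 1 by rw [pow_succ, pow_mul, hk, one_pow])⟩
  rw [pow_succ'] at this
  have hg : Nat.gcd 6 (2 * 2 ^ k) = 2 := by
    rw [show (6 : ℕ) = 2 * 3 from rfl, Nat.gcd_mul_left,
      show Nat.gcd 3 (2 ^ k) = 1 from (show Nat.Coprime 3 2 by norm_num).pow_right k]
  rw [hg, pow_two] at this
  exact this

/-- The quotient by the central involutions has order at most eight. -/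
theorem sq_eq_one_of_small_quotient (ψ : A →* MulAut M) (hA : 8 ≤ Nat.card A)
    (hcomm : ∀ x y : A, x * y = y * x) (h3 : ∀ x : A, x ^ 3 = 1) (hO : IsPGroup 2 M)
    (hfix : ∀ k : A, k ≠ 1 → ∀ o, ψ k o = o → o * o = 1)
    (hq : Nat.card (M ⧸ centreTwo M) ≤ 8) : ∀ o : M, o * o = 1 := by
  intro o
  obtain ⟨k, hk1, hk⟩ := exists_trivial (quotAct ψ) hA hcomm h3 hq
  set f := ψ k with hf
  obtain ⟨ζ, hζ, hζe⟩ : ∃ ζ ∈ centreTwo M, f o = o * ζ := by
    have h := hk (o : M ⧸ centreTwo M)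
    rw [quotAct_apply, eq_comm, QuotientGroup.eq] at h
    exact ⟨_, h, (mul_inv_cancel_left o (f o)).symm⟩
  have hfζ := map_centreTwo_mem f hζ
  have hff : f (f o) = o * (ζ * f ζ) := by rw [hζe, map_mul, hζe, mul_assoc]
  set c := o * f o * f (f o) with hc
  have hZ := mul_mem hζ (mul_mem hζ hfζ)
  have hce : c = o ^ 3 * (ζ * (ζ * f ζ)) := by
    rw [hc, hff, hζe]
    calc o * (o * ζ) * (o * (ζ * f ζ)) = o * o * (ζ * o) * (ζ * f ζ) := by group
      _ = o * o * (o * ζ) * (ζ * f ζ) := by rw [hζ.1 o]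
      _ = _ := by rw [pow_succ, pow_two]; simp [mul_assoc]
  have hfix' : f c = c := by
    have h3' : f (f (f o)) = o := by
      have h := congrArg (fun g : MulAut M => g o) (show ψ (k ^ 3) = 1 by rw [h3, map_one])
      simpa [hf, pow_succ, MulAut.mul_apply] using h
    rw [hc, map_mul, map_mul, h3', hff, hζe]
    have hZ2 := mul_mem hζ hfζ
    calc o * ζ * (o * (ζ * f ζ)) * o = o * (ζ * o) * ((ζ * f ζ) * o) := by group
      _ = o * (o * ζ) * (o * (ζ * f ζ)) := by rw [hζ.1 o, hZ2.1 o]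
  have hcc := hfix k hk1 c hfix'
  rw [hce] at hcc
  generalize ζ * (ζ * f ζ) = z at hZ hcc
  rw [mul_assoc, ← mul_assoc z, ← hZ.1 (o ^ 3), mul_assoc (o ^ 3) z z, hZ.2, mul_one, ← pow_two] at hcc
  exact mul_self_of_six hO hcc

/-- A 2-group of order at most sixteen. -/
theorem sq_eq_one_of_le_sixteen (ψ : A →* MulAut M) (hA : 8 ≤ Nat.card A)
    (hcomm : ∀ x y : A, x * y = y * x) (h3 : ∀ x : A, x ^ 3 = 1) (hO : IsPGroup 2 M)
    (hfix : ∀ k : A, k ≠ 1 → ∀ o, ψ k o = o → o * o = 1)
    (hc : Nat.card M ≤ 16) : ∀ o : M, o * o = 1 := by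
  rcases subsingleton_or_nontrivial M with hs | hn
  · exact fun o => Subsingleton.elim _ _
  refine sq_eq_one_of_small_quotient ψ hA hcomm h3 hO hfix ?_
  have h1 := Subgroup.card_eq_card_quotient_mul_card_subgroup (centreTwo M)
  have h2 := nontrivial_centreTwo hO
  nlinarith

/-- Twelve factors along the four lines. -/
theorem cube_of_lines {Q : Type*} [CommGroup Q] {x a a' b b' c c' d d' : Q} (h1 : x * a * a' = 1)
    (h2 : x * b * b' = 1) (h3 : x * c * c' = 1) (h4 : x * d * d' = 1) (h5 : b * c * d' = 1)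
    (h6 : b' * d * c' = 1) : x ^ 3 = 1 := by
  have e : x ^ 3 * ((x * a * a') * (b * c * d') * (b' * d * c')) =
      (x * a * a') * (x * b * b') * (x * c * c') * (x * d * d') := by
    simp only [pow_succ, pow_zero, one_mul]
    ac_rfl
  rw [h1, h2, h3, h4, h5, h6] at e
  simpa using e

/-- A 2-group of order at most 32 has exponent two. -/
theorem sq_eq_one_of_le_thirtyTwo (ψ : A →* MulAut M) (hA : 8 ≤ Nat.card A)
    (hcomm : ∀ x y : A, x * y = y * x) (h3 : ∀ x : A, x ^ 3 = 1) (hO : IsPGroup 2 M)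
    (hfix : ∀ k : A, k ≠ 1 → ∀ o, ψ k o = o → o * o = 1)
    (hc : Nat.card M ≤ 32) : ∀ o : M, o * o = 1 := by
  rcases subsingleton_or_nontrivial M with hs | hn
  · exact fun o => Subsingleton.elim _ _
  set Z := centreTwo M with hZdef
  have hcard := Subgroup.card_eq_card_quotient_mul_card_subgroup Z
  have h2 := nontrivial_centreTwo hO
  by_cases hq : Nat.card (M ⧸ Z) ≤ 8
  · exact sq_eq_one_of_small_quotient ψ hA hcomm h3 hO hfix hq
  have hz2 : Nat.card Z = 2 := by
    have : Fact (Nat.Prime 2) := ⟨Nat.prime_two⟩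
    obtain ⟨n, hn⟩ := IsPGroup.iff_card.1 (hO.to_subgroup Z)
    have hlt : Nat.card Z < 4 := by nlinarith
    rw [hn] at hlt ⊢ h2
    rcases n with _ | _ | n
    · omega
    · rfl
    · have : 4 ≤ 2 ^ (n + 2) := by
        rw [pow_add]; have := Nat.one_le_two_pow (n := n); omega
      omega
  have hfixZ : ∀ (k : A), ∀ z ∈ Z, ψ k z = z := by
    intro k z hz
    by_cases hz1 : z = 1
    · rw [hz1, map_one]
    have h1 : ψ k z ≠ 1 := fun e => hz1 ((map_eq_one_iff _ (ψ k).injective).1 e)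
    obtain ⟨y, hy, huniq⟩ : ∃ y : Z, y ≠ 1 ∧ ∀ w : Z, w ≠ 1 → w = y := by
      have : Nontrivial Z := Finite.one_lt_card_iff_nontrivial.1 (by omega)
      obtain ⟨y, hy⟩ := exists_ne (1 : Z)
      refine ⟨y, hy, fun w hw => ?_⟩
      by_contra hne
      classical
      have : Fintype Z := Fintype.ofFinite Z
      have h3 : ({1, y, w} : Finset Z).card = 3 := by
        rw [Finset.card_insert_of_notMem (by simp [Ne.symm hy, Ne.symm hw]),
          Finset.card_insert_of_notMem (by simp [Ne.symm hne]), Finset.card_singleton]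
      have := Finset.card_le_univ ({1, y, w} : Finset Z)
      rw [← Nat.card_eq_fintype_card] at this
      omega
    have e1 := huniq ⟨z, hz⟩ (fun e => hz1 (congrArg Subtype.val e))
    have e2 := huniq ⟨ψ k z, map_centreTwo_mem (ψ k) hz⟩ (fun e => h1 (congrArg Subtype.val e))
    exact congrArg Subtype.val (e2.trans e1.symm)
  have hlift : ∀ (k : A) (o : M), quotAct ψ k (o : M ⧸ Z) = o → ψ k o = o := by
    intro k o h
    rw [quotAct_apply, eq_comm, QuotientGroup.eq] at h
    set ζ := o⁻¹ * ψ k o with hζ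
    have he : ψ k o = o * ζ := by rw [hζ, mul_inv_cancel_left]
    have h' := congrArg (fun g : MulAut M => g o) (show ψ (k ^ 3) = 1 by rw [h3, map_one])
    simp only [pow_succ, pow_zero, one_mul, map_mul, MulAut.mul_apply, MulAut.one_apply] at h'
    rw [he, map_mul, he, hfixZ k ζ h, map_mul, map_mul, he, hfixZ k ζ h] at h'
    have : o * (ζ * (ζ * ζ)) = o := by simpa [mul_assoc] using h'
    rw [mul_eq_left, h.2, mul_one] at this
    rw [he, this, mul_one]
  have hQ : ∀ q : M ⧸ Z, q * q = 1 := by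
    refine sq_eq_one_of_le_sixteen (quotAct ψ) hA hcomm h3 (hO.to_quotient Z) (fun k hk q hq => ?_) ?_
    · obtain ⟨o, rfl⟩ := QuotientGroup.mk_surjective q
      rw [← QuotientGroup.mk_mul, hfix k hk o (hlift k o hq), QuotientGroup.mk_one]
    · nlinarith
  have hQc : ∀ p q : M ⧸ Z, p * q = q * p := by
    intro p q
    have hi : ∀ w : M ⧸ Z, w⁻¹ = w := fun w => inv_eq_of_mul_eq_one_right (hQ w)
    conv_lhs => rw [← hi (p * q), mul_inv_rev, hi p, hi q]
  -- the norm of an element lands in the centre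
  have hnorm : ∀ k : A, k ≠ 1 → ∀ q : M ⧸ Z, q * quotAct ψ k q * quotAct ψ k (quotAct ψ k q) = 1 := by
    intro k hk q
    set f := quotAct ψ k
    set N := q * f q * f (f q) with hN
    have h3' : f (f (f q)) = q := by
      have h := congrArg (fun g : MulAut (M ⧸ Z) => g q)
        (show quotAct ψ (k ^ 3) = 1 by rw [h3, map_one])
      simpa [f, pow_succ, MulAut.mul_apply] using h
    have hfN : f N = N := by
      rw [hN, map_mul, map_mul, h3', hQc _ q, ← mul_assoc]
    obtain ⟨c, hc⟩ := QuotientGroup.mk_surjective N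
    have hcfix := hlift k c (hc.symm ▸ hfN)
    have hc2 := hfix k hk c hcfix
    rw [← hc, QuotientGroup.eq_one_iff]
    refine ⟨fun d => ?_, hc2⟩
    -- `c` commutes with `d`
    obtain ⟨ζ, hζ, hcd⟩ : ∃ ζ ∈ Z, c * d * c⁻¹ = d * ζ := by
      refine ⟨d⁻¹ * (c * d * c⁻¹), ?_, (mul_inv_cancel_left _ _).symm⟩
      rw [← QuotientGroup.eq_one_iff]
      simp only [QuotientGroup.mk_mul, QuotientGroup.mk_inv]
      rw [hQc (c : M ⧸ Z), mul_inv_cancel_right, inv_mul_cancel]
    set d1 := ψ k d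
    set d2 := ψ k d1
    have h1 : c * d1 * c⁻¹ = d1 * ζ := by
      have := congrArg (ψ k) hcd
      simpa [map_mul, map_inv, hcfix, hfixZ k ζ hζ] using this
    have h2 : c * d2 * c⁻¹ = d2 * ζ := by
      have := congrArg (ψ k) h1
      simpa [map_mul, map_inv, hcfix, hfixZ k ζ hζ] using this
    set e := d * d1 * d2 with he
    have hefix : ψ k e = e := hlift k e (by
      rw [he, QuotientGroup.mk_mul, QuotientGroup.mk_mul, map_mul, map_mul, quotAct_apply,
        quotAct_apply, quotAct_apply]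
      have h' := congrArg (fun g : MulAut M => g d) (show ψ (k ^ 3) = 1 by rw [h3, map_one])
      have h'' : ψ k d2 = d := by simpa [d1, d2, pow_succ, MulAut.mul_apply] using h'
      rw [h'', hQc _ (d : M ⧸ Z), ← mul_assoc])
    have hce : c * e * c⁻¹ = e := by
      have hi : ∀ w : M, w * w = 1 → w⁻¹ = w := fun w hw => inv_eq_of_mul_eq_one_right hw
      have h12 := hfix k hk (c * e) (by rw [map_mul, hcfix, hefix])
      calc c * e * c⁻¹ = (c * e * c * e) * e⁻¹ := by rw [hi c hc2]; group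
        _ = e := by rw [mul_assoc (c * e), h12, one_mul, hi e (hfix k hk e hefix)]
    have hζ1 : ζ = 1 := by
      have : c * e * c⁻¹ = e * ζ := by
        calc c * e * c⁻¹ = (c * d * c⁻¹) * (c * d1 * c⁻¹) * (c * d2 * c⁻¹) := by rw [he]; group
          _ = d * (ζ * d1) * ζ * (d2 * ζ) := by rw [hcd, h1, h2]; group
          _ = d * d1 * (ζ * ζ) * (d2 * ζ) := by rw [← hζ.1 d1]; group
          _ = _ := by rw [hζ.2, mul_one, he, mul_assoc (d * d1)]
      rw [hce] at this
      exact mul_eq_left.1 this.symm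
    rw [hζ1, mul_one, mul_inv_eq_iff_eq_mul] at hcd
    exact hcd.symm
  -- two independent elements
  have : Nontrivial A := Finite.one_lt_card_iff_nontrivial.1 (by omega)
  obtain ⟨k, hk⟩ := exists_ne (1 : A)
  obtain ⟨l, hl⟩ : ∃ l, l ∉ Subgroup.zpowers k := by
    by_contra hall
    push Not at hall
    have h1 : Nat.card (Subgroup.zpowers k) = Nat.card A := by
      rw [show Subgroup.zpowers k = ⊤ from eq_top_iff.2 fun x _ => hall x, Subgroup.card_top]
    rw [Nat.card_zpowers] at h1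
    have := orderOf_le_of_pow_eq_one (by norm_num) (h3 k)
    omega
  have hl1 : l ≠ 1 := fun e => hl (e ▸ one_mem _)
  have hkl : k * l ≠ 1 := fun e => hl (by
    rw [eq_inv_of_mul_eq_one_right e]; exact inv_mem (Subgroup.mem_zpowers k))
  have hkl2 : k * (l * l) ≠ 1 := fun e => hl (by
    have e' : l = k := by
      calc l = l * (k * (l * l)) := by rw [e, mul_one]
        _ = k * l ^ 3 := by rw [← mul_assoc, hcomm l k, pow_succ, pow_two]; simp [mul_assoc]
        _ = k := by rw [h3, mul_one]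
    rw [e']; exact Subgroup.mem_zpowers k)
  intro o
  let cg : CommGroup (M ⧸ Z) := { (inferInstance : Group (M ⧸ Z)) with mul_comm := hQc }
  set act := fun (g : A) (q : M ⧸ Z) => quotAct ψ g q with hact
  have hcomp : ∀ (g g' : A) (q : M ⧸ Z), quotAct ψ g (quotAct ψ g' q) = quotAct ψ (g * g') q :=
    fun g g' q => by rw [map_mul, MulAut.mul_apply]
  set x : M ⧸ Z := (o : M ⧸ Z) with hx
  have l1 := hnorm k hk x
  have l2 := hnorm l hl1 x
  have l3 := hnorm (k * l) hkl x
  have l4 := hnorm (k * (l * l)) hkl2 x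
  have s1 := congrArg (quotAct ψ l) l1
  have s2 := congrArg (quotAct ψ (l * l)) l1
  simp only [map_mul (quotAct ψ l), map_mul (quotAct ψ (l * l)), map_one (quotAct ψ l),
    map_one (quotAct ψ (l * l)), hcomp] at l1 l2 l3 l4 s1 s2
  have e1 : l * l * k = k * (l * l) := hcomm _ _
  have e2 : l * k = k * l := hcomm _ _
  have e3 : k * l * (k * l) = l * l * (k * k) := by
    calc k * l * (k * l) = k * (l * k) * l := by simp [mul_assoc]
      _ = k * (k * l) * l := by rw [e2]
      _ = (k * k) * (l * l) := by simp [mul_assoc]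
      _ = l * l * (k * k) := hcomm _ _
  have e4 : k * (l * l) * (k * (l * l)) = l * (k * k) := by
    calc k * (l * l) * (k * (l * l)) = k * (l * l * k) * (l * l) := by simp [mul_assoc]
      _ = k * k * (l * l * (l * l)) := by rw [e1]; simp [mul_assoc]
      _ = k * k * (l ^ 3 * l) := by simp [pow_succ, mul_assoc]
      _ = l * (k * k) := by rw [h3, one_mul, hcomm]
  rw [e4] at l4
  rw [e3] at l3
  rw [e2] at s1
  rw [e1] at s2
  have hx3 : x ^ 3 = 1 := cube_of_lines l1 l2 l3 l4 s1 s2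
  have hx1 : x = 1 := by
    rw [pow_succ, pow_two, hQ, one_mul] at hx3
    exact hx3
  exact ((QuotientGroup.eq_one_iff o).1 hx1).2

end CfsgLib.SpecSix
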