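import Cfsg.Agent.SpecSix.Basic
import Cfsg.Agent.CITTwoP.Fpf

/-!
# A normalised subgroup of coprime order centralises

If `O` is a normal `p`-subgroup, `K/O` has order prime to `p` and is normalised by `v` whose proper
powers act without fixed points on it, and every element of `O v` has `n`-th power `v ^ n`, then
the `p'`-elements of `K` centralise `O`.
-/

set_option autoImplicit false
set_option linter.unusedSectionVars false
set_option linter.style.haveILetI false

namespace CfsgLib.SpecSix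

open CfsgLib.SpecFive (eq_one_of_pow_coprime)
open scoped IsMulCommutative

universe u

theorem mul_pow_prod {G : Type u} [Group G] (Z : Subgroup G) [IsMulCommutative Z] [Z.Normal] (v : G)
    (z : Z) : ∀ n : ℕ, ((z : G) * v) ^ n =
      ((∏ j ∈ Finset.range n, MulAut.conjNormal (v ^ j) z : Z) : G) * v ^ n
  | 0 => by simp
  | n + 1 => by
    rw [pow_succ, mul_pow_prod Z v z n, Finset.prod_range_succ, Subgroup.coe_mul,
      MulAut.conjNormal_apply, pow_succ]
    group

theorem eq_of_pow_conj {G : Type u} [Group G] {k o z : G} (h : k * o * k⁻¹ = z * o)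
    (hc : Commute k z) : ∀ m : ℕ, k ^ m * o * (k ^ m)⁻¹ = z ^ m * o
  | 0 => by simp
  | m + 1 => by
    have ih := eq_of_pow_conj h hc m
    calc k ^ (m + 1) * o * (k ^ (m + 1))⁻¹ = k * (k ^ m * o * (k ^ m)⁻¹) * k⁻¹ := by
          rw [pow_succ']; group
      _ = k * z ^ m * o * k⁻¹ := by rw [ih]; group
      _ = z ^ m * (k * o * k⁻¹) := by rw [(hc.pow_right m).eq]; group
      _ = z ^ (m + 1) * o := by rw [h, pow_succ]; group

/-- See the module docstring. -/
theorem centralizes_of_norm {p : ℕ} [hp : Fact p.Prime] :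
    ∀ (N : ℕ) {G : Type u} [Group G] [Finite G] (O : Subgroup G) [O.Normal], Nat.card O ≤ N →
      IsPGroup p O → ∀ (K : Subgroup G), O ≤ K → ¬ p ∣ O.relIndex K →
      ∀ (v : G), (∀ k ∈ K, v * k * v⁻¹ ∈ K) → ∀ n : ℕ, 0 < n →
      (∀ j, 0 < j → j < n → ∀ k ∈ K, v ^ j * k * (v ^ j)⁻¹ * k⁻¹ ∈ O → k ∈ O) →
      (∀ o ∈ O, (o * v) ^ n = v ^ n) →
      ∀ k ∈ K, (orderOf k).Coprime p → ∀ o ∈ O, Commute k o := by
  intro N
  induction N with
  | zero =>
    intro G _ _ O _ hN
    have := Nat.card_pos (α := O)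
    omega
  | succ N ih =>
    intro G _ _ O _ hN hO K hOK hidx v hvK n hn hfix hnorm k hk hkp o ho
    by_cases hO1 : O = ⊥
    · subst hO1
      rw [Subgroup.mem_bot.1 ho]
      exact Commute.one_right k
    haveI : Nontrivial O := (Subgroup.nontrivial_iff_ne_bot O).2 hO1
    haveI hZnt := hO.center_nontrivial
    set Z : Subgroup G := (Subgroup.center O).map O.subtype with hZ
    haveI hZn : Z.Normal := ⟨fun z hz g => by
      obtain ⟨⟨w, hwO⟩, hw, rfl⟩ := hz
      refine ⟨⟨g * w * g⁻¹, ‹O.Normal›.conj_mem w hwO g⟩, Subgroup.mem_center_iff.2 fun q => ?_, rfl⟩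
      have hq : g⁻¹ * (q : G) * g ∈ O := by simpa using ‹O.Normal›.conj_mem q q.2 g⁻¹
      have := congrArg Subtype.val (Subgroup.mem_center_iff.1 hw ⟨_, hq⟩)
      simp only [Subgroup.coe_mul] at this
      refine Subtype.ext ?_
      show (q : G) * (g * w * g⁻¹) = g * w * g⁻¹ * q
      calc (q : G) * (g * w * g⁻¹) = g * (g⁻¹ * q * g * w) * g⁻¹ := by group
        _ = g * (w * (g⁻¹ * q * g)) * g⁻¹ := by rw [this]
        _ = g * w * g⁻¹ * q := by group⟩
    have hZO : Z ≤ O := Subgroup.map_subtype_le _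
    have hZc : ∀ z ∈ Z, ∀ q ∈ O, Commute z q := by
      rintro _ ⟨⟨w, hwO⟩, hw, rfl⟩ q hq
      exact (congrArg Subtype.val (Subgroup.mem_center_iff.1 hw ⟨q, hq⟩)).symm
    haveI : IsMulCommutative Z := ⟨⟨fun a b => Subtype.ext (hZc a a.2 b (hZO b.2))⟩⟩
    haveI : Fact (1 < p) := ⟨hp.out.one_lt⟩
    -- the action of `G ⧸ O` on `Z`
    let f : G ⧸ O →* MulAut Z := QuotientGroup.lift O MulAut.conjNormal fun q hq => by
      refine MonoidHom.mem_ker.2 (MulEquiv.ext fun z => Subtype.ext ?_)
      rw [MulAut.conjNormal_apply, MulAut.one_apply, ← (hZc z z.2 q hq).eq]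
      group
    set π := QuotientGroup.mk' O with hπ
    have hfπ : ∀ (g : G) (z : Z), f (π g) z = MulAut.conjNormal g z := fun g z => rfl
    have hcent : ∀ z ∈ Z, Commute k z := by
      intro z hz
      have hcard : Nat.card (K.map π) = O.relIndex K := by
        rw [← Subgroup.relIndex_bot_left, ← Subgroup.map_bot π,
          Subgroup.relIndex_map_map, QuotientGroup.ker_mk', bot_sup_eq, sup_of_le_left hOK]
      have hm : (O.relIndex K).Coprime p := ((Nat.Prime.coprime_iff_not_dvd hp.out).2 hidx).symm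
      obtain ⟨e, he⟩ := (hO.to_le hZO).exists_card_eq (p := p) |>.imp fun e he => he
      have hm' : (Nat.card Z).Coprime (O.relIndex K) := he ▸ (hm.symm.pow_left e)
      obtain ⟨r, hr⟩ := ((powCoprime hm').surjective ⟨z, hz⟩)
      have key' := CITTwoP.pow_card_fixed_of_norm f (K.map π) (π v) (by
          rintro _ ⟨a, ha, rfl⟩
          exact ⟨v * a * v⁻¹, hvK a ha, by simp⟩) n hn (by
          rintro j hj hjn _ ⟨a, ha, rfl⟩ hc
          refine (QuotientGroup.eq_one_iff a).2 (hfix j hj hjn a ha ((QuotientGroup.eq_one_iff _).1 ?_))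
          show π (v ^ j * a * (v ^ j)⁻¹ * a⁻¹) = 1
          rw [map_mul, map_mul, map_mul, map_inv, map_inv, map_pow, hc.eq]
          group) (by
          intro w
          have h1 := mul_pow_prod Z v w n
          rw [hnorm _ (hZO w.2)] at h1
          have h2 := mul_eq_right.1 h1.symm
          refine Subtype.ext ?_
          refine Eq.trans (congrArg Subtype.val (Finset.prod_congr rfl fun j _ => ?_)) (h2.trans rfl)
          rw [← map_pow]
          rfl) r (Subgroup.mem_map_of_mem π hk)
      rw [hcard, show r ^ O.relIndex K = ⟨z, hz⟩ from hr, hfπ] at key'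
      have := congrArg Subtype.val key'
      rw [MulAut.conjNormal_apply] at this
      exact mul_inv_eq_iff_eq_mul.1 this
    -- the quotient by `Z`
    set σ := QuotientGroup.mk' Z with hσ
    haveI : (O.map σ).Normal := ‹O.Normal›.map _ (QuotientGroup.mk'_surjective Z)
    have hker : σ.ker = Z := QuotientGroup.ker_mk' Z
    have hlt : Nat.card (O.map σ) ≤ N := by
      have h1 : Nat.card (O.map σ) = Z.relIndex O := by
        rw [← Subgroup.relIndex_bot_left, ← Subgroup.map_bot σ,
          Subgroup.relIndex_map_map, hker, bot_sup_eq, sup_of_le_left hZO]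
      have h2 : Nat.card Z * Z.relIndex O = Nat.card O := by
        rw [← Subgroup.relIndex_bot_left, ← Subgroup.relIndex_bot_left,
          Subgroup.relIndex_mul_relIndex _ _ _ bot_le hZO]
      have h3 : 2 ≤ Nat.card Z := by
        rw [hZ, Subgroup.card_map_of_injective O.subtype_injective]
        exact Finite.one_lt_card
      rw [h1]
      have h4 : 0 < Z.relIndex O :=
        pos_of_mul_pos_right (h2.symm ▸ Nat.card_pos) (Nat.zero_le _)
      nlinarith
    have hkO := ih (O.map σ) hlt (hO.map σ) (K.map σ) (Subgroup.map_mono hOK)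
      (by rwa [Subgroup.relIndex_map_map, hker, sup_of_le_left hZO, sup_of_le_left (hZO.trans hOK)])
      (σ v) (by
        rintro _ ⟨a, ha, rfl⟩
        exact ⟨v * a * v⁻¹, hvK a ha, by simp⟩) n hn (by
        rintro j hj hjn _ ⟨a, ha, rfl⟩ hm
        refine Subgroup.mem_map_of_mem σ (hfix j hj hjn a ha ?_)
        have hm' : σ (v ^ j * a * (v ^ j)⁻¹ * a⁻¹) ∈ O.map σ := by simpa using hm
        obtain ⟨q, hq, e⟩ := hm'
        have : q⁻¹ * (v ^ j * a * (v ^ j)⁻¹ * a⁻¹) ∈ Z := by
          rw [← hker, MonoidHom.mem_ker, map_mul, map_inv, e, inv_mul_cancel]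
        simpa using O.mul_mem hq (hZO this)) (by
        rintro _ ⟨q, hq, rfl⟩
        rw [← map_mul, ← map_pow, hnorm q hq, map_pow])
      (σ k) (Subgroup.mem_map_of_mem σ hk) (hkp.coprime_dvd_left (orderOf_map_dvd σ k))
      (σ o) (Subgroup.mem_map_of_mem σ ho)
    set z := k * o * k⁻¹ * o⁻¹ with hz'
    have hzZ : z ∈ Z := by
      rw [← hker, MonoidHom.mem_ker, hz', map_mul, map_mul, map_mul, map_inv, map_inv, hkO.eq]
      group
    have hpow := eq_of_pow_conj (show k * o * k⁻¹ = z * o by rw [hz']; group) (hcent z hzZ) (orderOf k)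
    rw [pow_orderOf_eq_one, one_mul, inv_one, mul_one] at hpow
    have hzk : z ^ orderOf k = 1 := mul_eq_right.1 hpow.symm
    obtain ⟨e, he⟩ := hO ⟨z, hZO hzZ⟩
    have hz1 : z = 1 := eq_one_of_pow_coprime (hkp.pow_right e) hzk (congrArg Subtype.val he)
    rw [hz1] at hz'
    exact mul_inv_eq_iff_eq_mul.1 (mul_inv_eq_one.1 hz'.symm)

end CfsgLib.SpecSix
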